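import Cfsg.Prelude.Def_Blocks
import Cfsg.Agent.Characters.Core
import Cfsg.Agent.Blocks.Basic
import Cfsg.Agent.Blocks.Knorr
import Cfsg.Agent.S0906
import Cfsg.Agent.S0908
import Cfsg.Agent.S0917
import Cfsg.Agent.S0919
import Cfsg.Agent.S0936
import Cfsg.Agent.S0941

/-!
# Deficiency classes

A finite group has deficiency class `r` (for the prime `p`) when all its nonprincipal `p`-blocks
have defect `< r`.

* `blockDefect_le_of_induced` : the defect of a block is at most the defect of the induced block.
* `defClass_centralizer` : the deficiency class passes to centralizers of `p`-elements.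
* `defClass_quotient` : `r + 1` for `H` gives `r` for the quotient by a central subgroup of order
  `p`.
-/

set_option autoImplicit false

open Cfsg

namespace Cfsg.Agent.H659.Deficiency

open Cfsg.Agent.Blocks Cfsg.Agent.Characters.Core

variable {G : Type*} [Group G] [Finite G] {p : ℕ} [Fact p.Prime] {M : Ideal AlgInt}

/-- Every block has a defect group. -/
theorem exists_defectGroup (hM : IsPModular p M) (B : Set (IrrCharacter G)) (hB : IsPBlock M B) :
    ∃ D : Subgroup G, IsDefectGroup p M B D := by
  obtain ⟨g, hg⟩ := S0906.result p M hM B hB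
  exact ⟨_, g, hg, default, rfl⟩

theorem blockDefect_le_of_induced (hM : IsPModular p M) (H : Subgroup G)
    (b : Set (IrrCharacter H)) (B : Set (IrrCharacter G)) (h : IsInducedBlock M H b B) :
    blockDefect p b ≤ blockDefect p B := by
  have hp : p.Prime := Fact.out
  obtain ⟨D, hD⟩ := exists_defectGroup hM b h.1
  obtain ⟨E, hE, hDE⟩ := S0917.result p M hM H b h.1 B h.2.1 h D hD
  have h1 := S0908.result p M hM b h.1 D hD
  have h2 := S0908.result p M hM B h.2.1 E hE
  have h3 : Nat.card (D.map H.subtype) = Nat.card D :=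
    (Nat.card_congr (D.equivMapOfInjective H.subtype H.subtype_injective).toEquiv).symm
  have h4 := Subgroup.card_dvd_of_le hDE
  rw [h3, h1, h2] at h4
  exact (Nat.pow_dvd_pow_iff_le_right hp.one_lt).1 h4

theorem inducedBlockDefined_centralizer (hM : IsPModular p M) (y : G)
    (hy : ∃ k : ℕ, orderOf y = p ^ k)
    (b : Set (IrrCharacter (Subgroup.centralizer ({y} : Set G)))) (hb : IsPBlock M b) :
    InducedBlockDefined M (Subgroup.centralizer ({y} : Set G)) b := by
  obtain ⟨k, hk⟩ := hy
  have hP : IsPGroup p (Subgroup.zpowers y) := by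
    refine IsPGroup.of_card (n := k) ?_
    rw [Nat.card_zpowers, hk]
  have hcent : Subgroup.centralizer ((Subgroup.zpowers y : Subgroup G) : Set G) =
      Subgroup.centralizer ({y} : Set G) := by
    rw [Subgroup.zpowers_eq_closure, Subgroup.centralizer_closure]
  exact S0919.result p M hM (Subgroup.zpowers y) _ hP
    (Subgroup.zpowers_le.2 (Subgroup.mem_centralizer_singleton_iff.2 rfl)) hcent.le
    (by rw [← hcent]; exact Subgroup.centralizer_le_normalizer _) b hb

/-- The deficiency class passes to centralizers of `p`-elements. -/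
theorem defClass_centralizer (hM : IsPModular p M) (r : ℕ)
    (h : ∀ B : Set (IrrCharacter G), IsPBlock M B → B ≠ principalBlock M G → blockDefect p B < r)
    (y : G) (hy : ∃ k : ℕ, orderOf y = p ^ k)
    (b : Set (IrrCharacter (Subgroup.centralizer ({y} : Set G)))) (hb : IsPBlock M b)
    (hb' : b ≠ principalBlock M (Subgroup.centralizer ({y} : Set G))) : blockDefect p b < r := by
  have hdef := inducedBlockDefined_centralizer hM y hy b hb
  obtain ⟨B, hB⟩ := id hdef
  have hne : B ≠ principalBlock M G := by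
    rintro rfl
    exact hb' ((S0936.result p M hM _ b hdef).1 hB)
  exact (blockDefect_le_of_induced hM _ b B hB).trans_lt (h B hB.2.1 hne)

/-- The deficiency class and quotients by a central subgroup of order `p`. -/
theorem defClass_quotient (hM : IsPModular p M) (r : ℕ)
    (h : ∀ B : Set (IrrCharacter G), IsPBlock M B → B ≠ principalBlock M G →
      blockDefect p B < r + 1)
    (Z : Subgroup G) [Z.Normal] (hZ : Z ≤ Subgroup.center G) (hZp : Nat.card Z = p)
    (b : Set (IrrCharacter (G ⧸ Z))) (hb : IsPBlock M b)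
    (hb' : b ≠ principalBlock M (G ⧸ Z)) : blockDefect p b < r := by
  have hp : p.Prime := Fact.out
  have hMp : M.IsPrime := Local.isPrime_of_isPModular hM
  have hPZ : IsPGroup p Z := IsPGroup.of_card (n := 1) (by rw [hZp, pow_one])
  have hcent : Subgroup.centralizer (Z : Set G) = ⊤ := by
    rw [eq_top_iff]
    intro x _
    rw [Subgroup.mem_centralizer_iff]
    intro z hz
    exact (Subgroup.mem_center_iff.1 (hZ hz) x).symm
  have h941 := (S0941.result p M hM Z hPZ ⟨0, by rw [hcent, Subgroup.index_top, pow_zero]⟩).1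
  obtain ⟨χ, rfl⟩ := hb
  have hinf : ∀ θ : IrrCharacter (G ⧸ Z),
      IsIrrCharacter G ((θ : G ⧸ Z → ℂ) ∘ QuotientGroup.mk) := fun θ =>
    isIrr_comp (QuotientGroup.mk' Z) (QuotientGroup.mk'_surjective Z) θ.2
  set χ' : IrrCharacter G := ⟨_, hinf χ⟩ with hχ'
  have hne : blockOf M (χ' : G → ℂ) ≠ principalBlock M G := by
    intro heq
    apply hb'
    apply Basic.blockOf_eq_of_sameBlock
    have h1 : χ' ∈ principalBlock M G := by
      rw [← heq]
      exact Basic.mem_blockOf_self χ'
    have h2 : SameBlock M (χ' : G → ℂ) (fun _ => 1) := Basic.sameBlock_symm h1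
    exact (h941 χ ⟨fun _ => 1, isIrr_one⟩).2 h2
  have h1 := h _ ⟨χ', rfl⟩ hne
  -- compare the defects
  have hcard : Nat.card G = Nat.card (G ⧸ Z) * p := by
    rw [← hZp]
    exact Subgroup.card_eq_card_quotient_mul_card_subgroup Z
  have hfac : (Nat.card G).factorization p = (Nat.card (G ⧸ Z)).factorization p + 1 := by
    rw [hcard, Nat.factorization_mul Nat.card_pos.ne' hp.ne_zero, Finsupp.add_apply,
      hp.factorization_self]
  set f : IrrCharacter G → ℕ := fun θ => (charDegree (θ : G → ℂ)).factorization p with hf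
  set f' : IrrCharacter (G ⧸ Z) → ℕ := fun θ => (charDegree (θ : G ⧸ Z → ℂ)).factorization p
    with hf'
  have hne' : (f' '' blockOf M (χ : G ⧸ Z → ℂ)).Nonempty := ⟨_, χ, Basic.mem_blockOf_self χ, rfl⟩
  obtain ⟨θ, hθ, hθ'⟩ := Nat.sInf_mem hne'
  have h2 : sInf (f '' blockOf M (χ' : G → ℂ)) ≤ sInf (f' '' blockOf M (χ : G ⧸ Z → ℂ)) := by
    rw [← hθ']
    apply Nat.sInf_le
    refine ⟨⟨_, hinf θ⟩, (h941 χ θ).1 hθ, ?_⟩
    simp only [hf, hf']
    rfl
  have h3 : sInf (f' '' blockOf M (χ : G ⧸ Z → ℂ)) ≤ (Nat.card (G ⧸ Z)).factorization p := by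
    rw [← hθ']
    exact (Nat.factorization_le_iff_dvd (by
      obtain ⟨n, hn, h⟩ := isIrr_apply_one θ.2
      have : charDegree (θ : G ⧸ Z → ℂ) = n := by
        unfold charDegree
        rw [h]
        simp
      omega) Nat.card_pos.ne').2 (Knorr.charDegree_dvd θ.2) p
  have h4 : blockDefect p (blockOf M (χ' : G → ℂ)) =
      (Nat.card G).factorization p - sInf (f '' blockOf M (χ' : G → ℂ)) := rfl
  have h5 : blockDefect p (blockOf M (χ : G ⧸ Z → ℂ)) =
      (Nat.card (G ⧸ Z)).factorization p - sInf (f' '' blockOf M (χ : G ⧸ Z → ℂ)) := rfl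
  rw [h4] at h1
  rw [h5]
  omega

end Cfsg.Agent.H659.Deficiency
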