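import Mathlib
import Cfsg.Agent.H659.Frob3Group

/-!
# Linear characters of an abelian Sylow subgroup with automizer of order three
-/

set_option autoImplicit false
set_option linter.unusedSectionVars false

namespace Cfsg.Agent.H659.Frob3Dual

open Subgroup Frob3Group

variable {G : Type*} [Group G] [Finite G] {p : ℕ} [Fact p.Prime] (P : Sylow p G)

/-- The orbit of `ψ` under the normalizer, as in the statements. -/
def orb (ψ : (P : Subgroup G) →* ℂˣ) : Set ((P : Subgroup G) →* ℂˣ) :=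
  {ψ' | ∃ n : G, n ∈ normalizer ((P : Subgroup G) : Set G) ∧
    ∀ w w' : (P : Subgroup G), (w' : G) = n * w * n⁻¹ → ψ' w' = ψ w}

variable {P}

/-- Conjugation by `n` on `P`. -/
noncomputable def cj (n : G) (hn : n ∈ normalizer ((P : Subgroup G) : Set G)) :
    (P : Subgroup G) →* (P : Subgroup G) :=
  ((P : Subgroup G).normalizerMonoidHom ⟨n, hn⟩ : MulAut (P : Subgroup G)).toMonoidHom

theorem cj_coe (n : G) (hn : n ∈ normalizer ((P : Subgroup G) : Set G)) (x : (P : Subgroup G)) :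
    ((cj n hn x : (P : Subgroup G)) : G) = n * x * n⁻¹ := rfl

theorem cj_three (h : Hyp P) (n : G) (hn : n ∈ normalizer ((P : Subgroup G) : Set G))
    (x : (P : Subgroup G)) : cj n hn (cj n hn (cj n hn x)) = x := by
  apply Subtype.ext
  rw [cj_coe, cj_coe, cj_coe]
  have h3 := conj_centralizer (pow_three_mem h hn) x.2
  calc n * (n * (n * x * n⁻¹) * n⁻¹) * n⁻¹ = n ^ 3 * x * (n ^ 3)⁻¹ := by
        simp only [pow_succ, pow_zero, one_mul, mul_inv_rev, mul_assoc]
    _ = x := h3

/-- The conjugate of a character. -/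
noncomputable def tw (n : G) (hn : n ∈ normalizer ((P : Subgroup G) : Set G))
    (ψ : (P : Subgroup G) →* ℂˣ) : (P : Subgroup G) →* ℂˣ := ψ.comp (cj n hn)

theorem tw_apply (n : G) (hn : n ∈ normalizer ((P : Subgroup G) : Set G))
    (ψ : (P : Subgroup G) →* ℂˣ) (x : (P : Subgroup G)) : tw n hn ψ x = ψ (cj n hn x) := rfl

theorem tw_three (h : Hyp P) (n : G) (hn : n ∈ normalizer ((P : Subgroup G) : Set G))
    (ψ : (P : Subgroup G) →* ℂˣ) : tw n hn (tw n hn (tw n hn ψ)) = ψ := by
  ext x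
  rw [tw_apply, tw_apply, tw_apply, cj_three h]

/-- Only the trivial character is fixed. -/
theorem eq_one_of_tw (h : Hyp P) {n : G} (hn : n ∈ normalizer ((P : Subgroup G) : Set G))
    (hnC : n ∉ centralizer ((P : Subgroup G) : Set G)) {ψ : (P : Subgroup G) →* ℂˣ}
    (hψ : tw n hn ψ = ψ) : ψ = 1 := by
  have hinj : Function.Injective (fun x : (P : Subgroup G) => x⁻¹ * cj n hn x) := by
    intro x y hxy
    simp only at hxy
    by_contra hne
    apply hnC
    have hcomm : ∀ a b : (P : Subgroup G), a * b = b * a :=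
      fun a b => Subtype.ext (h.comm a a.2 b b.2)
    have h1 : cj n hn (x * y⁻¹) = x * y⁻¹ := by
      rw [map_mul, map_inv]
      have h2 : cj n hn x = x * (y⁻¹ * cj n hn y) := by rw [← hxy]; group
      rw [h2]
      group
    refine mem_of_commute h (x * y⁻¹).2 (fun h0 => hne ?_) hn ?_
    · have : x * y⁻¹ = 1 := Subtype.ext h0
      exact mul_inv_eq_one.1 this
    · rw [← cj_coe n hn, h1]
  ext z
  obtain ⟨x, hx⟩ := (Finite.injective_iff_surjective.1 hinj) z
  simp only at hx
  rw [← hx, map_mul, map_inv, ← tw_apply, hψ]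
  simp

theorem orb_eq (h : Hyp P) {n : G} (hn : n ∈ normalizer ((P : Subgroup G) : Set G))
    (hnC : n ∉ centralizer ((P : Subgroup G) : Set G)) (ψ : (P : Subgroup G) →* ℂˣ) :
    orb P ψ = {ψ, tw n hn ψ, tw n hn (tw n hn ψ)} := by
  ext ψ'
  simp only [Set.mem_insert_iff, Set.mem_singleton_iff]
  constructor
  · rintro ⟨g, hg, hg'⟩
    obtain ⟨i, hi, c, hc, rfl⟩ := exists_coset h hn hnC hg
    have key : ∀ w w' : (P : Subgroup G), (w' : G) = n ^ i * w * (n ^ i)⁻¹ → ψ' w' = ψ w := by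
      intro w w' hw
      apply hg'
      rw [hw]
      have := conj_centralizer hc w.2
      calc n ^ i * w * (n ^ i)⁻¹ = n ^ i * (c * w * c⁻¹) * (n ^ i)⁻¹ := by rw [this]
        _ = n ^ i * c * w * (n ^ i * c)⁻¹ := by group
    interval_cases i
    · left
      ext w
      rw [key w w (by simp)]
    · right; right
      have h1 : tw n hn ψ' = ψ := by
        ext w
        rw [tw_apply, key w (cj n hn w) (by rw [cj_coe, pow_one])]
      rw [← h1, tw_three h]
    · right; left
      have h1 : tw n hn (tw n hn ψ') = ψ := by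
        ext w
        rw [tw_apply, tw_apply, key w (cj n hn (cj n hn w)) (by
          rw [cj_coe, cj_coe]
          simp only [pow_succ, pow_zero, one_mul, mul_inv_rev, mul_assoc])]
      rw [← h1, tw_three h]
  · rintro (rfl | rfl | rfl)
    · refine ⟨1, one_mem _, fun w w' hw => ?_⟩
      have : w' = w := Subtype.ext (by rw [hw]; group)
      rw [this]
    · refine ⟨n ^ 2, pow_mem hn 2, fun w w' hw => ?_⟩
      have : w' = cj n hn (cj n hn w) := Subtype.ext (by
        rw [hw, cj_coe, cj_coe]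
        simp only [pow_succ, pow_zero, one_mul, mul_inv_rev, mul_assoc])
      rw [this, tw_apply, cj_three h]
    · refine ⟨n, hn, fun w w' hw => ?_⟩
      have : w' = cj n hn w := Subtype.ext (by rw [hw, cj_coe])
      rw [this, tw_apply, tw_apply, cj_three h]

theorem tw_ne_one {n : G} (hn : n ∈ normalizer ((P : Subgroup G) : Set G))
    {ψ : (P : Subgroup G) →* ℂˣ} (h : Hyp P) (hψ : ψ ≠ 1) : tw n hn ψ ≠ 1 := by
  intro h1
  apply hψ
  have h2 := tw_three h n hn ψ
  rw [← h2, h1]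
  ext x
  simp [tw_apply]

theorem finsum_orb (h : Hyp P) {n : G} (hn : n ∈ normalizer ((P : Subgroup G) : Set G))
    (hnC : n ∉ centralizer ((P : Subgroup G) : Set G)) {ψ : (P : Subgroup G) →* ℂˣ}
    (hψ : ψ ≠ 1) (F : ((P : Subgroup G) →* ℂˣ) → ℂ) :
    ∑ᶠ ψ' ∈ orb P ψ, F ψ' = F ψ + F (tw n hn ψ) + F (tw n hn (tw n hn ψ)) := by
  classical
  rw [orb_eq h hn hnC]
  have h1 : tw n hn ψ ≠ ψ := fun h0 => hψ (eq_one_of_tw h hn hnC h0)
  have h2 : tw n hn (tw n hn ψ) ≠ tw n hn ψ := fun h0 =>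
    tw_ne_one hn h hψ (eq_one_of_tw h hn hnC h0)
  have h3 : tw n hn (tw n hn ψ) ≠ ψ := by
    intro h0
    apply h1
    conv_rhs => rw [← tw_three h n hn ψ, h0]
  have hset : ({ψ, tw n hn ψ, tw n hn (tw n hn ψ)} : Set ((P : Subgroup G) →* ℂˣ)) =
      (({ψ, tw n hn ψ, tw n hn (tw n hn ψ)} : Finset ((P : Subgroup G) →* ℂˣ)) : Set _) := by
    simp
  rw [hset, finsum_mem_coe_finset, Finset.sum_insert, Finset.sum_insert, Finset.sum_singleton]
  · ring
  · rw [Finset.mem_singleton]
    exact h2.symm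
  · rw [Finset.mem_insert, Finset.mem_singleton, not_or]
    exact ⟨h1.symm, h3.symm⟩

section orth

variable {A : Type*} [Group A] [Fintype A]

theorem sum_units_eq_zero {ψ : A →* ℂˣ} (hψ : ψ ≠ 1) : ∑ x : A, ((ψ x : ℂˣ) : ℂ) = 0 := by
  have := sum_hom_units_eq_zero ((Units.coeHom ℂ).comp ψ) (by
    intro h0
    apply hψ
    ext x
    have := DFunLike.congr_fun h0 x
    simpa using this)
  exact this

theorem sum_units_mul_inv {ψ φ : A →* ℂˣ} :
    ∑ x : A, ((ψ x : ℂˣ) : ℂ) * ((φ x⁻¹ : ℂˣ) : ℂ) =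
      open Classical in if ψ = φ then (Nat.card A : ℂ) else 0 := by
  classical
  split_ifs with h
  · subst h
    have : ∀ x : A, ((ψ x : ℂˣ) : ℂ) * ((ψ x⁻¹ : ℂˣ) : ℂ) = 1 := by
      intro x
      rw [← Units.val_mul, ← map_mul, mul_inv_cancel, map_one, Units.val_one]
    rw [Finset.sum_congr rfl fun x _ => this x]
    simp
  · have h1 : ∀ x : A, ((ψ x : ℂˣ) : ℂ) * ((φ x⁻¹ : ℂˣ) : ℂ) = (((ψ * φ⁻¹) x : ℂˣ) : ℂ) := by
      intro x
      rw [← Units.val_mul, map_inv]
      rfl
    rw [Finset.sum_congr rfl fun x _ => h1 x]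
    apply sum_units_eq_zero
    intro h0
    exact h (mul_inv_eq_one.1 h0)

end orth

/-- A linear character which is trivial on a proper subgroup of an abelian group. -/
theorem exists_trivial_on (h : Hyp P) (V : Subgroup (P : Subgroup G)) (hV : V ≠ ⊤) :
    ∃ ψ : (P : Subgroup G) →* ℂˣ, ψ ≠ 1 ∧ ∀ v ∈ V, ψ v = 1 := by
  have hcomm : ∀ a b : (P : Subgroup G), a * b = b * a :=
    fun a b => Subtype.ext (h.comm a a.2 b b.2)
  have hVn : V.Normal := ⟨fun v hv g => by rwa [hcomm g v, mul_inv_cancel_right]⟩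
  let _ : CommGroup ((P : Subgroup G) ⧸ V) :=
    { (inferInstance : Group ((P : Subgroup G) ⧸ V)) with
      mul_comm := by
        intro a b
        induction a using QuotientGroup.induction_on with
        | H a =>
          induction b using QuotientGroup.induction_on with
          | H b => rw [← QuotientGroup.mk_mul, ← QuotientGroup.mk_mul, hcomm] }
  obtain ⟨x, hx⟩ : ∃ x, x ∉ V := by
    by_contra hcon
    push Not at hcon
    exact hV (eq_top_iff.2 fun x _ => hcon x)
  have hx1 : (x : (P : Subgroup G) ⧸ V) ≠ 1 := by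
    rwa [Ne, QuotientGroup.eq_one_iff]
  obtain ⟨φ, hφ⟩ := CommGroup.exists_apply_ne_one_of_hasEnoughRootsOfUnity
    ((P : Subgroup G) ⧸ V) ℂ hx1
  refine ⟨φ.comp (QuotientGroup.mk' V), ?_, ?_⟩
  · intro h0
    apply hφ
    have := DFunLike.congr_fun h0 x
    exact this
  · intro v hv
    have : (QuotientGroup.mk' V) v = 1 := (QuotientGroup.eq_one_iff v).2 hv
    rw [MonoidHom.comp_apply, this, map_one]

end Cfsg.Agent.H659.Frob3Dual
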