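import Cfsg.Prelude.Def_Blocks
import Cfsg.Agent.S4709
import Cfsg.Agent.S0907
import Cfsg.Agent.H659.Frob3Dual

/-!
# The principal block for an abelian Sylow subgroup with automizer of order three

`reduced` : the data of S4709 with `m = 3`, normalised to `d = 0`.
-/

set_option autoImplicit false
set_option linter.unusedSectionVars false

open Cfsg
open scoped ComplexConjugate

namespace Cfsg.Agent.H659.Frob3Data

open Subgroup Cfsg.Agent.Blocks Cfsg.Agent.Characters.Core Frob3Group Frob3Dual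

variable {G : Type*} [Group G] [Finite G] {p : ℕ} [Fact p.Prime]

/-- the block data -/
structure Data (M : Ideal AlgInt) (P : Sylow p G) (X Y : Set (IrrCharacter G))
    (a : IrrCharacter G → ℤ) (δ : ℤ) (ζ : ((P : Subgroup G) →* ℂˣ) → IrrCharacter G) : Prop where
  block : principalBlock M G = X ∪ Y
  disj : Disjoint X Y
  cardX : Nat.card X = 3
  cardY : Nat.card Y = (Nat.card P - 1) / 3
  one : ∃ χ₁ ∈ X, (χ₁ : G → ℂ) = fun _ => 1
  hδ : δ = 1 ∨ δ = -1
  valX : ∀ χ ∈ X, (a χ = 1 ∨ a χ = -1) ∧ ∀ z y : G, IsPPart p z y → y ∈ (P : Subgroup G) →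
    y ≠ 1 → (χ : G → ℂ) z = (a χ : ℂ)
  memY : ∀ ψ : (P : Subgroup G) →* ℂˣ, ψ ≠ 1 → ζ ψ ∈ Y
  surjY : ∀ η ∈ Y, ∃ ψ : (P : Subgroup G) →* ℂˣ, ψ ≠ 1 ∧ ζ ψ = η
  orbY : ∀ ψ ψ' : (P : Subgroup G) →* ℂˣ, ψ ≠ 1 → ψ' ∈ orb P ψ → ζ ψ' = ζ ψ
  valY : ∀ ψ : (P : Subgroup G) →* ℂˣ, ψ ≠ 1 → ∀ (z : G) (y : (P : Subgroup G)),
    IsPPart p z (y : G) → (y : G) ≠ 1 →
    (ζ ψ : G → ℂ) z = (δ : ℂ) * ∑ᶠ ψ' ∈ orb P ψ, ((ψ' y : ℂˣ) : ℂ)
  regY : ∀ η ∈ Y, ∀ η' ∈ Y, ∀ g : G, ¬ p ∣ orderOf g → (η : G → ℂ) g = (η' : G → ℂ) g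
  rel : ∀ η ∈ Y, ∀ g : G, ¬ p ∣ orderOf g →
    -(δ : ℂ) * (η : G → ℂ) g + ∑ᶠ χ ∈ X, (a χ : ℂ) * (χ : G → ℂ) g = 0

theorem dvd_orderOf {z y : G} (hz : IsPPart p z y) (hy1 : y ≠ 1) : p ∣ orderOf z := by
  by_contra hcon
  exact hy1 (PPart.isPPart_unique hz (PPart.isPPart_of_not_dvd hcon))

theorem one_not_dvd : ¬ p ∣ orderOf (1 : G) := by
  rw [orderOf_one]
  exact (Fact.out : p.Prime).one_lt.ne' ∘ Nat.dvd_one.1

/-- Sum over a disjoint union. -/
theorem finsum_union {ι : Type*} [Finite ι] (X Y : Set ι) (h : Disjoint X Y) (F : ι → ℂ) :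
    ∑ᶠ χ ∈ X ∪ Y, F χ = ∑ᶠ χ ∈ X, F χ + ∑ᶠ χ ∈ Y, F χ :=
  finsum_mem_union h (Set.toFinite _) (Set.toFinite _)

/-- The sum of the exceptional characters at a `p`-singular element. -/
theorem sumY (M : Ideal AlgInt) (hM : IsPModular p M) {X Y : Set (IrrCharacter G)}
    {a : IrrCharacter G → ℤ} (hB : principalBlock M G = X ∪ Y) (hd : Disjoint X Y)
    (c : ℤ) {η₀ : IrrCharacter G}
    (hreg : ∀ η ∈ Y, (η : G → ℂ) 1 = (η₀ : G → ℂ) 1)
    (hrel : (c : ℂ) * (η₀ : G → ℂ) 1 + ∑ᶠ χ ∈ X, (a χ : ℂ) * (χ : G → ℂ) 1 = 0)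
    {z : G} (hz : p ∣ orderOf z) (hX : ∀ χ ∈ X, (χ : G → ℂ) z = (a χ : ℂ)) :
    ∑ᶠ η ∈ Y, (η : G → ℂ) z = c := by
  classical
  have : Finite (IrrCharacter G) := finite_irr
  have := Fintype.ofFinite (IrrCharacter G)
  have h1 := S0907.result (G := G) p M hM (principalBlock M G)
    ⟨⟨fun _ => 1, isIrr_one⟩, rfl⟩ 1 z one_not_dvd hz
  rw [hB, finsum_union X Y hd] at h1
  have h2 : ∑ᶠ χ ∈ X, (χ : G → ℂ) 1 * conj ((χ : G → ℂ) z) =
      ∑ᶠ χ ∈ X, (a χ : ℂ) * (χ : G → ℂ) 1 := by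
    refine finsum_mem_congr rfl fun χ hχ => ?_
    rw [hX χ hχ, map_intCast, mul_comm]
  have h3 : ∑ᶠ χ ∈ Y, (χ : G → ℂ) 1 * conj ((χ : G → ℂ) z) =
      (η₀ : G → ℂ) 1 * conj (∑ᶠ η ∈ Y, (η : G → ℂ) z) := by
    rw [finsum_mem_eq_toFinset_sum, finsum_mem_eq_toFinset_sum, map_sum, Finset.mul_sum]
    refine Finset.sum_congr rfl fun χ hχ => ?_
    rw [hreg χ (by simpa using hχ)]
  rw [h2, h3] at h1
  have h4 : (η₀ : G → ℂ) 1 * (conj (∑ᶠ η ∈ Y, (η : G → ℂ) z) - c) = 0 := by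
    linear_combination h1 - hrel
  have h5 := (mul_eq_zero.1 h4).resolve_left (isIrr_apply_one_ne_zero η₀.2)
  have h6 : conj (∑ᶠ η ∈ Y, (η : G → ℂ) z) = (c : ℂ) := sub_eq_zero.1 h5
  have h7 := congrArg conj h6
  rw [Complex.conj_conj, map_intCast] at h7
  exact h7

theorem reduced (M : Ideal AlgInt) (hM : IsPModular p M) (P : Sylow p G)
    (hyp : Hyp P) (hP : 4 < Nat.card P)
    (hcyc : ∃ g : G, g ∈ Subgroup.normalizer ((P : Subgroup G) : Set G) ∧
      Subgroup.centralizer ((P : Subgroup G) : Set G) ⊔ Subgroup.zpowers g =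
        Subgroup.normalizer ((P : Subgroup G) : Set G)) :
    ∃ X Y a δ ζ, Data M P X Y a δ ζ := by
  classical
  have : Finite (IrrCharacter G) := finite_irr
  have := Fintype.ofFinite (IrrCharacter G)
  have hp : p.Prime := Fact.out
  have hab : IsMulCommutative P := ⟨⟨fun a b => Subtype.ext (hyp.comm a a.2 b b.2)⟩⟩
  obtain ⟨s, X, Y, hs, hB, hdisj, hX, hY, hone, a, d, δ, ζ, hδ, hXa, hζY, hζs, hζc, hζv, hnorm,
    hreg, hrel⟩ := S4709.result p M hM P hab (by omega) 3 (by norm_num) hP hyp.idx hcyc hyp.frob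
  -- the number `r` of exceptional characters
  have hmod : Nat.card P ≡ 1 [MOD 3] := card_modEq hyp
  set r : ℕ := (Nat.card P - 1) / 3 with hr
  have hr3 : Nat.card P = 3 * r + 1 := by
    have : Nat.card P % 3 = 1 := hmod
    omega
  have hr2 : 2 ≤ r := by omega
  have hrne3 : r ≠ 3 := by
    intro h
    obtain ⟨k, hk⟩ := P.2.exists_card_eq
    have h10 : Nat.card P = 10 := by omega
    change Nat.card P = p ^ k at hk
    rw [h10] at hk
    have h2 : 2 ∣ p := Nat.prime_two.dvd_of_dvd_pow (n := k) (by rw [← hk]; norm_num)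
    have h5 : 5 ∣ p := Nat.prime_five.dvd_of_dvd_pow (n := k) (by rw [← hk]; norm_num)
    have h2' := (Nat.prime_dvd_prime_iff_eq Nat.prime_two hp).1 h2
    have h5' := (Nat.prime_dvd_prime_iff_eq Nat.prime_five hp).1 h5
    omega
  -- the numbers `a`
  obtain ⟨χ₁, hχ₁, hχ₁'⟩ := hone
  obtain ⟨y₀, hy₀, hy₀1⟩ : ∃ y ∈ (P : Subgroup G), y ≠ 1 := by
    by_contra hcon
    push Not at hcon
    have : (P : Subgroup G) = ⊥ := (Subgroup.eq_bot_iff_forall _).2 hcon
    have h1 : Nat.card (P : Subgroup G) = 1 := by rw [this, Subgroup.card_bot]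
    change Nat.card P = 1 at h1
    omega
  have hpow : ∀ y ∈ (P : Subgroup G), ∃ k : ℕ, orderOf y = p ^ k := by
    intro y hy
    obtain ⟨n, hn⟩ := P.2 ⟨y, hy⟩
    have hn' : y ^ (p ^ n) = 1 := by simpa using congrArg Subtype.val hn
    obtain ⟨j, -, hj⟩ := (Nat.dvd_prime_pow hp).1 (orderOf_dvd_of_pow_eq_one hn')
    exact ⟨j, hj⟩
  have ha1 : a χ₁ = 1 := by
    have h1 := (hXa χ₁ hχ₁).2 y₀ y₀ (PPart.isPPart_of_isPGroup (hpow y₀ hy₀)) hy₀ hy₀1
    rw [hχ₁'] at h1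
    have h2 : (1 : ℂ) = (a χ₁ : ℂ) := h1
    exact_mod_cast h2.symm
  have hXcard : X.toFinset.card = s := by
    rw [← hX, Nat.card_eq_fintype_card, Set.toFinset_card]
  set A : ℤ := ∑ᶠ χ ∈ X, a χ ^ 2 with hA
  have hAsum : A = ∑ χ ∈ X.toFinset, a χ ^ 2 := by rw [hA, finsum_mem_eq_toFinset_sum]
  have hsq : ∀ χ ∈ X, 1 ≤ a χ ^ 2 := by
    intro χ hχ
    have := (hXa χ hχ).1
    have : 0 < a χ ^ 2 := by positivity
    linarith
  have hAs : (s : ℤ) ≤ A := by
    rw [hAsum, ← hXcard, Finset.card_eq_sum_ones]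
    push_cast
    exact Finset.sum_le_sum fun χ hχ => hsq χ (by simpa using hχ)
  have hs1 : 1 ≤ s := by
    rw [← hXcard]
    exact Finset.card_pos.2 ⟨χ₁, by simpa using hχ₁⟩
  have hAle : ∀ χ ∈ X, a χ ^ 2 ≤ A := by
    intro χ hχ
    rw [hAsum]
    exact Finset.single_le_sum (f := fun χ => a χ ^ 2) (fun χ _ => sq_nonneg _) (by simpa using hχ)
  -- if `A = 3` then `s = 3` and all `a` are signs
  have hA3 : A = 3 → s = 3 ∧ ∀ χ ∈ X, a χ = 1 ∨ a χ = -1 := by
    intro h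
    have h1 : ∀ χ ∈ X, a χ = 1 ∨ a χ = -1 := by
      intro χ hχ
      have h2 := hAle χ hχ
      rw [h] at h2
      have h3 := (hXa χ hχ).1
      have h4 : a χ ≤ 1 := by nlinarith
      have h5 : -1 ≤ a χ := by nlinarith
      omega
    refine ⟨?_, h1⟩
    have h2 : A = s := by
      rw [hAsum, ← hXcard, Finset.card_eq_sum_ones]
      push_cast
      refine Finset.sum_congr rfl fun χ hχ => ?_
      rcases h1 χ (by simpa using hχ) with h | h <;> rw [h] <;> norm_num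
    rw [h] at h2
    exact_mod_cast h2.symm
  -- the norm equation
  have hnorm' : (d - δ) ^ 2 + ((r : ℤ) - 1) * d ^ 2 + A = 4 := by
    have h1 : ((Nat.card P : ℤ) - 1) / 3 = r := by
      rw [hr3]; push_cast; omega
    have h2 := hnorm
    push_cast at h2
    rw [h1] at h2
    linarith
  have hδ2 : δ ^ 2 = 1 := by rcases hδ with h | h <;> rw [h] <;> norm_num
  have hrZ : (2 : ℤ) ≤ r := by exact_mod_cast hr2
  have hA1 : 1 ≤ A := by have : (1 : ℤ) ≤ s := by exact_mod_cast hs1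
                         linarith
  have hdcases : d = 0 ∨ (d = δ ∧ r = 2) := by
    have h1 : d ^ 2 ≤ ((r : ℤ) - 1) * d ^ 2 := by nlinarith [sq_nonneg d]
    have h2 : d ^ 2 ≤ 3 := by nlinarith [sq_nonneg (d - δ)]
    have h3 : d ≤ 1 := by nlinarith
    have h4 : -1 ≤ d := by nlinarith
    by_cases hd0 : d = 0
    · exact Or.inl hd0
    · right
      have hd1 : d = 1 ∨ d = -1 := by omega
      have hdδ : d = δ := by
        by_contra hne
        have : d - δ = 2 ∨ d - δ = -2 := by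
          rcases hd1 with h | h <;> rcases hδ with h' | h' <;> rw [h, h'] at hne ⊢ <;> omega
        have h5 : (d - δ) ^ 2 = 4 := by rcases this with h | h <;> rw [h] <;> norm_num
        have h6 : d ^ 2 = 1 := by rcases hd1 with h | h <;> rw [h] <;> norm_num
        rw [h5, h6] at hnorm'
        linarith
      refine ⟨hdδ, ?_⟩
      rw [hdδ, hδ2, sub_self] at hnorm'
      have h7 : (r : ℤ) ≤ 4 := by linarith
      have h8 : r ≤ 4 := by exact_mod_cast h7
      have hr4 : r ≠ 4 := by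
        intro h4
        rw [h4] at hnorm'
        have hA1' : A = 1 := by push_cast at hnorm'; linarith
        have hs1' : s = 1 := by
          have : (s : ℤ) ≤ 1 := by rw [← hA1']; exact hAs
          have : s ≤ 1 := by exact_mod_cast this
          omega
        -- `X = {χ₁}`
        have hX1 : X.toFinset = {χ₁} := by
          rw [hs1'] at hXcard
          obtain ⟨x, hx⟩ := Finset.card_eq_one.1 hXcard
          have : χ₁ ∈ X.toFinset := by simpa using hχ₁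
          rw [hx] at this ⊢
          rw [Finset.mem_singleton.1 this]
        obtain ⟨η, hη⟩ : Y.Nonempty := by
          rw [← Set.ncard_pos (Set.toFinite _)]
          change 0 < Nat.card Y
          rw [hY]; omega
        have h9 := hrel η hη 1 one_not_dvd
        rw [finsum_mem_eq_toFinset_sum, hX1, Finset.sum_singleton, ha1, hχ₁'] at h9
        obtain ⟨n, hn, hn'⟩ := isIrr_apply_one η.2
        rw [hn'] at h9
        have h10 : (r : ℂ) = 4 := by
          rw [h4]; norm_num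
        rw [h10, hdδ] at h9
        have h11 : (3 * δ * n + 1 : ℤ) = 0 := by
          have : ((3 * δ * n + 1 : ℤ) : ℂ) = 0 := by
            push_cast
            linear_combination h9
          exact_mod_cast this
        rcases hδ with h | h <;> rw [h] at h11 <;> omega
      omega
  have hYne : Y.Nonempty := by
    rw [← Set.ncard_pos (Set.toFinite _)]
    change 0 < Nat.card Y
    rw [hY]; omega
  rcases hdcases with hd | ⟨hdδ, hr2'⟩
  · -- the case `d = 0`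
    have hA3' : A = 3 := by
      rw [hd] at hnorm'
      have : (0 - δ) ^ 2 = 1 := by rw [zero_sub, neg_sq, hδ2]
      rw [this] at hnorm'
      linarith
    obtain ⟨hs3, hsign⟩ := hA3 hA3'
    refine ⟨X, Y, a, δ, ζ, ⟨hB, hdisj, by rw [hX, hs3], by rw [hY], ⟨χ₁, hχ₁, hχ₁'⟩, hδ,
      fun χ hχ => ⟨hsign χ hχ, (hXa χ hχ).2⟩, hζY, hζs, ?_, ?_, hreg, ?_⟩⟩
    · intro ψ ψ' hψ hψ'
      exact hζc ψ ψ' hψ hψ'
    · intro ψ hψ z y hz hy
      have := hζv ψ hψ z y hz hy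
      rw [hd, Int.cast_zero, zero_add] at this
      exact this
    · intro η hη g hg
      have := hrel η hη g hg
      rw [hd, Int.cast_zero, mul_zero, zero_sub] at this
      exact this
  · -- the case `d = δ`, two exceptional characters
    have hA3' : A = 3 := by
      rw [hdδ, hr2', hδ2, sub_self] at hnorm'
      push_cast at hnorm'
      linarith
    obtain ⟨hs3, hsign⟩ := hA3 hA3'
    have hY2 : Y.ncard = 2 := by
      change Nat.card Y = 2
      rw [hY, hr2']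
    obtain ⟨η₁, η₂, hη, hYeq⟩ := Set.ncard_eq_two.1 hY2
    have hη₁ : η₁ ∈ Y := by rw [hYeq]; simp
    have hη₂ : η₂ ∈ Y := by rw [hYeq]; simp
    have hrel' : ∀ η ∈ Y, ∀ g : G, ¬ p ∣ orderOf g →
        (δ : ℂ) * (η : G → ℂ) g + ∑ᶠ χ ∈ X, (a χ : ℂ) * (χ : G → ℂ) g = 0 := by
      intro η hη g hg
      have := hrel η hη g hg
      rw [hr2', hdδ] at this
      push_cast at this
      linear_combination this
    have hsum : ∀ z y : G, IsPPart p z y → y ∈ (P : Subgroup G) → y ≠ 1 →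
        (η₁ : G → ℂ) z + (η₂ : G → ℂ) z = δ := by
      intro z y hz hy hy1
      have h1 := sumY M hM hB hdisj (a := a) δ (η₀ := η₁)
        (fun η hη => hreg η hη η₁ hη₁ 1 one_not_dvd) (hrel' η₁ hη₁ 1 one_not_dvd)
        (dvd_orderOf hz hy1) (fun χ hχ => (hXa χ hχ).2 z y hz hy hy1)
      rw [← h1, hYeq, finsum_mem_pair hη]
    have hδ' : (-δ = 1 ∨ -δ = -1) := by rcases hδ with h | h <;> rw [h] <;> norm_num
    refine ⟨X, Y, a, -δ, fun ψ => if ζ ψ = η₁ then η₂ else η₁, ⟨hB, hdisj, by rw [hX, hs3],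
      by rw [hY], ⟨χ₁, hχ₁, hχ₁'⟩, hδ', fun χ hχ => ⟨hsign χ hχ, (hXa χ hχ).2⟩, ?_, ?_, ?_, ?_,
      hreg, ?_⟩⟩
    · intro ψ _
      split_ifs
      exacts [hη₂, hη₁]
    · intro η hηY
      rw [hYeq] at hηY
      rcases hηY with rfl | hηY
      · obtain ⟨ψ, hψ, hψ'⟩ := hζs η₂ hη₂
        refine ⟨ψ, hψ, ?_⟩
        rw [hψ', if_neg hη.symm]
      · rw [Set.mem_singleton_iff] at hηY
        subst hηY
        obtain ⟨ψ, hψ, hψ'⟩ := hζs η₁ hη₁
        refine ⟨ψ, hψ, ?_⟩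
        rw [hψ', if_pos rfl]
    · intro ψ ψ' hψ hψ'
      rw [hζc ψ ψ' hψ hψ']
    · intro ψ hψ z y hz hy
      have h1 := hζv ψ hψ z y hz hy
      have h2 := hsum z y hz y.2 hy
      have h3 : (ζ ψ : G → ℂ) z = (d : ℂ) + (δ : ℂ) * ∑ᶠ ψ' ∈ orb P ψ, ((ψ' y : ℂˣ) : ℂ) := h1
      have h4 : ζ ψ ∈ ({η₁, η₂} : Set (IrrCharacter G)) := by
        rw [← hYeq]; exact hζY ψ hψ
      have hδ2' : (δ : ℂ) * δ = 1 := by exact_mod_cast (pow_two δ ▸ hδ2)
      rw [hdδ] at h3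
      push_cast
      rcases h4 with h4 | h4
      · rw [if_pos h4]
        rw [h4] at h3
        linear_combination h2 - h3
      · rw [Set.mem_singleton_iff] at h4
        rw [if_neg (by rw [h4]; exact hη.symm)]
        rw [h4] at h3
        linear_combination h2 - h3
    · intro η hη g hg
      have := hrel' η hη g hg
      push_cast
      linear_combination this

end Cfsg.Agent.H659.Frob3Data
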