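import Cfsg.Prelude.Def_Blocks
import Cfsg.Agent.S0898
import Cfsg.Agent.S0944
import Cfsg.Agent.H659.Arith3
import Cfsg.Agent.H659.StructConst
import Cfsg.Agent.H659.Frob3Product
import Cfsg.Agent.H659.Frob3Data

/-!
# The principal block for an abelian Sylow subgroup with automizer of order three: involutions
-/

set_option autoImplicit false
set_option linter.unusedSectionVars false

open Cfsg
open scoped ComplexConjugate

namespace Cfsg.Agent.H659.Frob3Invol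

open Subgroup Cfsg.Agent.Blocks Cfsg.Agent.Characters.Core Frob3Group Frob3Dual Frob3Data

variable {G : Type*} [Group G] [Finite G] {p : ℕ} [Fact p.Prime]

theorem exists_orderOf (P : Sylow p G) {x : G} (hx : x ∈ (P : Subgroup G)) :
    ∃ k : ℕ, orderOf x = p ^ k := by
  have hp : p.Prime := Fact.out
  obtain ⟨n, hn⟩ := P.2 ⟨x, hx⟩
  have hn' : x ^ (p ^ n) = 1 := by simpa using congrArg Subtype.val hn
  obtain ⟨j, -, hj⟩ := (Nat.dvd_prime_pow hp).1 (orderOf_dvd_of_pow_eq_one hn')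
  exact ⟨j, hj⟩

/-- `χ(t) ^ 2 / χ(1)` -/
noncomputable def cc (t : G) (χ : IrrCharacter G) : ℂ := ((χ : G → ℂ) t) ^ 2 / (χ : G → ℂ) 1

variable {M : Ideal AlgInt} {P : Sylow p G} {X Y : Set (IrrCharacter G)}
  {a : IrrCharacter G → ℤ} {δ : ℤ} {ζ : ((P : Subgroup G) →* ℂˣ) → IrrCharacter G}

theorem nonempty_Y (hyp : Hyp P) (hP : 4 < Nat.card P) (D : Data M P X Y a δ ζ) : Y.Nonempty := by
  have : Finite (IrrCharacter G) := finite_irr
  have hmod : Nat.card P % 3 = 1 := card_modEq hyp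
  rw [← Set.ncard_pos (Set.toFinite _)]
  have h : Y.ncard = (Nat.card P - 1) / 3 := D.cardY
  rw [h]
  omega

/-- The relations at the involution, `p` odd. -/
theorem relations_odd (hM : IsPModular p M) (hyp : Hyp P) (hP : 4 < Nat.card P) (hp2 : p ≠ 2)
    (D : Data M P X Y a δ ζ) (t : G) (ht : orderOf t = 2) :
    ∃ η₀ ∈ Y, -(δ : ℂ) * (η₀ : G → ℂ) t + ∑ᶠ χ ∈ X, (a χ : ℂ) * (χ : G → ℂ) t = 0 ∧
      -(δ : ℂ) * cc t η₀ + ∑ᶠ χ ∈ X, (a χ : ℂ) * cc t χ = 0 := by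
  classical
  have : Finite (IrrCharacter G) := finite_irr
  have := Fintype.ofFinite (IrrCharacter G)
  have hp : p.Prime := Fact.out
  have ht2 : t * t = 1 := by rw [← pow_two, ← ht, pow_orderOf_eq_one]
  obtain ⟨η₀, hη₀⟩ := nonempty_Y hyp hP D
  have htp : ¬ p ∣ orderOf t := by
    rw [ht]
    intro h
    exact hp2 ((Nat.prime_dvd_prime_iff_eq hp Nat.prime_two).1 h)
  refine ⟨η₀, hη₀, D.rel η₀ hη₀ t htp, ?_⟩
  obtain ⟨y₀, hy₀, hy₀1⟩ : ∃ y ∈ (P : Subgroup G), y ≠ 1 := by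
    by_contra hcon
    push Not at hcon
    have : (P : Subgroup G) = ⊥ := (Subgroup.eq_bot_iff_forall _).2 hcon
    have h1 : Nat.card (P : Subgroup G) = 1 := by rw [this, Subgroup.card_bot]
    change Nat.card P = 1 at h1
    omega
  have hpart := PPart.isPPart_of_isPGroup (exists_orderOf P hy₀)
  have h1 := StructConst.structure_vanish hM t y₀ (exists_orderOf P hy₀)
    (fun z hz a b => Frob3Product.no_product_odd hyp hp2 ht2 (P.inv_mem hy₀)
      (fun h => hy₀1 (inv_eq_one.1 h)) hz a b)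
  rw [D.block, finsum_union X Y D.disj] at h1
  have h2 : ∑ᶠ χ ∈ X, ((χ : G → ℂ) t) ^ 2 / (χ : G → ℂ) 1 * (χ : G → ℂ) y₀ =
      ∑ᶠ χ ∈ X, (a χ : ℂ) * cc t χ := by
    refine finsum_mem_congr rfl fun χ hχ => ?_
    rw [(D.valX χ hχ).2 y₀ y₀ hpart hy₀ hy₀1, mul_comm]
    rfl
  have h3 : ∑ᶠ χ ∈ Y, ((χ : G → ℂ) t) ^ 2 / (χ : G → ℂ) 1 * (χ : G → ℂ) y₀ =
      cc t η₀ * ∑ᶠ η ∈ Y, (η : G → ℂ) y₀ := by
    rw [finsum_mem_eq_toFinset_sum, finsum_mem_eq_toFinset_sum, Finset.mul_sum]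
    refine Finset.sum_congr rfl fun χ hχ => ?_
    have hχY : χ ∈ Y := by simpa using hχ
    rw [D.regY χ hχY η₀ hη₀ t htp, D.regY χ hχY η₀ hη₀ 1 one_not_dvd]
    rfl
  have h4 := sumY M hM D.block D.disj (a := a) (-δ) (η₀ := η₀)
    (fun η hη => D.regY η hη η₀ hη₀ 1 one_not_dvd)
    (by have := D.rel η₀ hη₀ 1 one_not_dvd
        push_cast
        exact this)
    (dvd_orderOf hpart hy₀1) (fun χ hχ => (D.valX χ hχ).2 y₀ y₀ hpart hy₀ hy₀1)
  rw [h2, h3, h4] at h1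
  push_cast at h1
  linear_combination h1

/-- The four-group generated by the conjugates of an involution of `P` under the normalizer. -/
theorem exists_four (P : Sylow 2 G) (hyp : Hyp P) {n t : G}
    (hn : n ∈ normalizer ((P : Subgroup G) : Set G))
    (hnC : n ∉ centralizer ((P : Subgroup G) : Set G)) (htP : t ∈ (P : Subgroup G))
    (ht : t * t = 1) :
    ∃ V : Subgroup (P : Subgroup G), Nat.card V ≤ 4 ∧
      ∀ i : ℕ, i < 3 → ∀ x : (P : Subgroup G), (x : G) = n ^ i * t * (n ^ i)⁻¹ → x ∈ V := by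
  classical
  have hcomm : ∀ a b : (P : Subgroup G), a * b = b * a :=
    fun a b => Subtype.ext (hyp.comm a a.2 b b.2)
  set s₀ : (P : Subgroup G) := ⟨t, htP⟩ with hs₀
  set s₁ : (P : Subgroup G) := cj n hn s₀ with hs₁
  set s₂ : (P : Subgroup G) := cj n hn s₁ with hs₂
  have h00 : s₀ * s₀ = 1 := Subtype.ext ht
  have h11 : s₁ * s₁ = 1 := by rw [hs₁, ← map_mul, h00, map_one]
  have h22 : s₂ * s₂ = 1 := by rw [hs₂, ← map_mul, h11, map_one]
  have h012 : s₀ * s₁ * s₂ = 1 := Subtype.ext (prod_eq_one hyp hn hnC htP)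
  have h01 : s₀ * s₁ = s₂ := by
    calc s₀ * s₁ = s₀ * s₁ * (s₂ * s₂) := by rw [h22, mul_one]
      _ = (s₀ * s₁ * s₂) * s₂ := by group
      _ = s₂ := by rw [h012, one_mul]
  have h02 : s₀ * s₂ = s₁ := by
    rw [← h01, ← mul_assoc, h00, one_mul]
  have h12 : s₁ * s₂ = s₀ := by
    rw [← h01, hcomm s₀ s₁, ← mul_assoc, h11, one_mul]
  have h10 : s₁ * s₀ = s₂ := by rw [hcomm, h01]
  have h20 : s₂ * s₀ = s₁ := by rw [hcomm, h02]
  have h21 : s₂ * s₁ = s₀ := by rw [hcomm, h12]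
  let V : Subgroup (P : Subgroup G) :=
    { carrier := (({1, s₀, s₁, s₂} : Finset (P : Subgroup G)) : Set (P : Subgroup G))
      one_mem' := by simp
      mul_mem' := by
        intro x y hx hy
        simp only [Finset.coe_insert, Finset.coe_singleton, Set.mem_insert_iff,
          Set.mem_singleton_iff] at hx hy ⊢
        rcases hx with rfl | rfl | rfl | rfl <;> rcases hy with rfl | rfl | rfl | rfl <;>
          simp [h00, h11, h22, h01, h02, h12, h10, h20, h21]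
      inv_mem' := by
        intro x hx
        simp only [Finset.coe_insert, Finset.coe_singleton, Set.mem_insert_iff,
          Set.mem_singleton_iff] at hx ⊢
        rcases hx with rfl | rfl | rfl | rfl
        · simp
        · right; left; exact inv_eq_of_mul_eq_one_left h00
        · right; right; left; exact inv_eq_of_mul_eq_one_left h11
        · right; right; right; exact inv_eq_of_mul_eq_one_left h22 }
  refine ⟨V, ?_, ?_⟩
  · have h1 : Nat.card V = ({1, s₀, s₁, s₂} : Finset (P : Subgroup G)).card := by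
      have h0 : ((({1, s₀, s₁, s₂} : Finset (P : Subgroup G)) :
        Set (P : Subgroup G))).ncard = ({1, s₀, s₁, s₂} : Finset (P : Subgroup G)).card :=
        Set.ncard_coe_finset _
      exact h0
    rw [h1]
    refine (Finset.card_insert_le _ _).trans ?_
    refine Nat.succ_le_succ ((Finset.card_insert_le _ _).trans ?_)
    refine Nat.succ_le_succ ((Finset.card_insert_le _ _).trans ?_)
    simp
  · intro i hi x hx
    change x ∈ (({1, s₀, s₁, s₂} : Finset (P : Subgroup G)) : Set (P : Subgroup G))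
    simp only [Finset.coe_insert, Finset.coe_singleton, Set.mem_insert_iff, Set.mem_singleton_iff]
    interval_cases i
    · right; left
      apply Subtype.ext
      rw [hx]; simp [hs₀]
    · right; right; left
      apply Subtype.ext
      rw [hx, hs₁, cj_coe]; simp [hs₀]
    · right; right; right
      apply Subtype.ext
      rw [hx, hs₂, cj_coe, hs₁, cj_coe]
      simp only [pow_succ, pow_zero, one_mul, mul_inv_rev, mul_assoc, hs₀]

/-- The weighted sums of the exceptional characters. -/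
theorem weight_Y {M : Ideal AlgInt} {P : Sylow p G} {X Y : Set (IrrCharacter G)}
    {a : IrrCharacter G → ℤ} {δ : ℤ} {ζ : ((P : Subgroup G) →* ℂˣ) → IrrCharacter G}
    [Fintype (P : Subgroup G)]
    (hyp : Hyp P) (D : Data M P X Y a δ ζ) {ψ₀ : (P : Subgroup G) →* ℂˣ} (hψ₀ : ψ₀ ≠ 1)
    (η : IrrCharacter G) (hη : η ∈ Y) :
    ∑ y : (P : Subgroup G), (1 - ((ψ₀ y⁻¹ : ℂˣ) : ℂ)) * (η : G → ℂ) y =
      open Classical in if η = ζ ψ₀ then -(δ : ℂ) * Nat.card (P : Subgroup G) else 0 := by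
  classical
  obtain ⟨n, hn, hnC⟩ := exists_gen hyp
  have key : ∀ ψ : (P : Subgroup G) →* ℂˣ, ψ ≠ 1 →
      ∑ y : (P : Subgroup G), (1 - ((ψ₀ y⁻¹ : ℂˣ) : ℂ)) * (ζ ψ : G → ℂ) y =
      -(δ : ℂ) * ((if ψ = ψ₀ then (Nat.card (P : Subgroup G) : ℂ) else 0) +
        (if tw n hn ψ = ψ₀ then (Nat.card (P : Subgroup G) : ℂ) else 0) +
        (if tw n hn (tw n hn ψ) = ψ₀ then (Nat.card (P : Subgroup G) : ℂ) else 0)) := by
    intro ψ hψ
    have h1 : ∀ y : (P : Subgroup G), (1 - ((ψ₀ y⁻¹ : ℂˣ) : ℂ)) * (ζ ψ : G → ℂ) y =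
        (δ : ℂ) * ((((ψ y : ℂˣ) : ℂ) + ((tw n hn ψ y : ℂˣ) : ℂ) +
          ((tw n hn (tw n hn ψ) y : ℂˣ) : ℂ)) -
          (((ψ y : ℂˣ) : ℂ) * ((ψ₀ y⁻¹ : ℂˣ) : ℂ) + ((tw n hn ψ y : ℂˣ) : ℂ) * ((ψ₀ y⁻¹ : ℂˣ) : ℂ) +
          ((tw n hn (tw n hn ψ) y : ℂˣ) : ℂ) * ((ψ₀ y⁻¹ : ℂˣ) : ℂ))) := by
      intro y
      by_cases hy : (y : G) = 1
      · have hy' : y = 1 := Subtype.ext hy
        subst hy'
        simp
      · rw [D.valY ψ hψ y y (PPart.isPPart_of_isPGroup (exists_orderOf P y.2)) hy,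
          finsum_orb hyp hn hnC hψ]
        ring
    rw [Finset.sum_congr rfl fun y _ => h1 y, ← Finset.mul_sum, Finset.sum_sub_distrib,
      Finset.sum_add_distrib, Finset.sum_add_distrib, Finset.sum_add_distrib,
      Finset.sum_add_distrib, sum_units_eq_zero hψ, sum_units_eq_zero (tw_ne_one hn hyp hψ),
      sum_units_eq_zero (tw_ne_one hn hyp (tw_ne_one hn hyp hψ)), sum_units_mul_inv,
      sum_units_mul_inv, sum_units_mul_inv]
    ring
  by_cases hη0 : η = ζ ψ₀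
  · rw [if_pos hη0, hη0, key ψ₀ hψ₀]
    have h1 : tw n hn ψ₀ ≠ ψ₀ := fun h0 => hψ₀ (eq_one_of_tw hyp hn hnC h0)
    have h3 : tw n hn (tw n hn ψ₀) ≠ ψ₀ := by
      intro h0
      apply h1
      conv_rhs => rw [← tw_three hyp n hn ψ₀, h0]
    rw [if_pos rfl, if_neg h1, if_neg h3]
    ring
  · rw [if_neg hη0]
    obtain ⟨ψ, hψ, hψ'⟩ := D.surjY η hη
    have hno : ψ₀ ∉ orb P ψ := by
      intro h
      apply hη0
      rw [← hψ', D.orbY ψ ψ₀ hψ h]
    rw [orb_eq hyp hn hnC] at hno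
    simp only [Set.mem_insert_iff, Set.mem_singleton_iff, not_or] at hno
    rw [← hψ', key ψ hψ, if_neg (Ne.symm hno.1), if_neg (Ne.symm hno.2.1),
      if_neg (Ne.symm hno.2.2)]
    ring

/-- The relations at the involution, `p = 2`. -/
theorem relations_two {M : Ideal AlgInt} {P : Sylow 2 G} {X Y : Set (IrrCharacter G)}
    {a : IrrCharacter G → ℤ} {δ : ℤ} {ζ : ((P : Subgroup G) →* ℂˣ) → IrrCharacter G}
    [Fact (Nat.Prime 2)]
    (hM : IsPModular 2 M) (hyp : Hyp P) (hP : 4 < Nat.card P)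
    (D : Data M P X Y a δ ζ) (t : G) (ht : orderOf t = 2) (htP : t ∈ (P : Subgroup G)) :
    ∃ η₀ ∈ Y, -(δ : ℂ) * (η₀ : G → ℂ) t + ∑ᶠ χ ∈ X, (a χ : ℂ) * (χ : G → ℂ) t = 0 ∧
      -(δ : ℂ) * cc t η₀ + ∑ᶠ χ ∈ X, (a χ : ℂ) * cc t χ = 0 := by
  classical
  have : Finite (IrrCharacter G) := finite_irr
  have := Fintype.ofFinite (IrrCharacter G)
  have := Fintype.ofFinite (P : Subgroup G)
  have ht2 : t * t = 1 := by rw [← pow_two, ← ht, pow_orderOf_eq_one]
  have ht1 : t ≠ 1 := by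
    rintro rfl
    rw [orderOf_one] at ht
    norm_num at ht
  obtain ⟨n, hn, hnC⟩ := exists_gen hyp
  obtain ⟨V, hVcard, hV⟩ := exists_four P hyp hn hnC htP ht2
  have hVtop : V ≠ ⊤ := by
    intro h
    rw [h, Subgroup.card_top] at hVcard
    change Nat.card P ≤ 4 at hVcard
    omega
  obtain ⟨ψ₀, hψ₀, hψ₀V⟩ := exists_trivial_on hyp V hVtop
  have htpart : IsPPart 2 t t := PPart.isPPart_of_isPGroup (exists_orderOf P htP)
  refine ⟨ζ ψ₀, D.memY ψ₀ hψ₀, ?_, ?_⟩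
  · -- the value at `t`
    have h1 := D.valY ψ₀ hψ₀ t ⟨t, htP⟩ htpart ht1
    rw [finsum_orb hyp hn hnC hψ₀] at h1
    have e0 : ψ₀ ⟨t, htP⟩ = 1 := hψ₀V _ (hV 0 (by norm_num) _ (by simp))
    have e1 : tw n hn ψ₀ ⟨t, htP⟩ = 1 := by
      rw [tw_apply]
      exact hψ₀V _ (hV 1 (by norm_num) _ (by rw [cj_coe]; simp))
    have e2 : tw n hn (tw n hn ψ₀) ⟨t, htP⟩ = 1 := by
      rw [tw_apply, tw_apply]
      exact hψ₀V _ (hV 2 (by norm_num) _ (by
        rw [cj_coe, cj_coe]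
        simp only [pow_succ, pow_zero, one_mul, mul_inv_rev, mul_assoc]))
    rw [e0, e1, e2, Units.val_one] at h1
    have h2 : ∑ᶠ χ ∈ X, (a χ : ℂ) * (χ : G → ℂ) t = 3 := by
      have h3 : ∑ᶠ χ ∈ X, (a χ : ℂ) * (χ : G → ℂ) t = ∑ᶠ χ ∈ X, (1 : ℂ) := by
        refine finsum_mem_congr rfl fun χ hχ => ?_
        rw [(D.valX χ hχ).2 t t htpart htP ht1]
        rcases (D.valX χ hχ).1 with h | h <;> rw [h] <;> norm_num
      rw [h3, finsum_mem_eq_toFinset_sum, Finset.sum_const, nsmul_eq_mul, mul_one]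
      have h4 : X.toFinset.card = 3 := by
        rw [← D.cardX, Nat.card_eq_fintype_card, Set.toFinset_card]
      rw [h4]
      norm_num
    rw [h1, h2]
    have h5 : (δ : ℂ) * δ = 1 := by
      rcases D.hδ with h | h <;> rw [h] <;> norm_num
    linear_combination -3 * h5
  · -- the weighted sum
    have hvan : ∀ y : (P : Subgroup G), y ∉ V →
        ∑ᶠ χ ∈ principalBlock M G, cc t χ * (χ : G → ℂ) y = 0 := by
      intro y hy
      refine StructConst.structure_vanish hM t y (exists_orderOf P y.2) ?_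
      intro z hz a' b' hab
      obtain ⟨i, j, hi, hj, hij⟩ := Frob3Product.product_two hyp hn hnC ht htP
        (P.inv_mem y.2) hz a' b' hab
      apply hy
      have hmi : n ^ i * t * (n ^ i)⁻¹ ∈ (P : Subgroup G) := conj_mem _ _ (pow_mem hn i) htP
      have hmj : n ^ j * t * (n ^ j)⁻¹ ∈ (P : Subgroup G) := conj_mem _ _ (pow_mem hn j) htP
      have h1 := hV i hi ⟨_, hmi⟩ rfl
      have h2 := hV j hj ⟨_, hmj⟩ rfl
      have h3 : y = (⟨_, hmj⟩ : (P : Subgroup G))⁻¹ * ⟨_, hmi⟩ := by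
        apply Subtype.ext
        have h4 : (y : G) = ((y : G)⁻¹)⁻¹ := (inv_inv _).symm
        rw [h4, hij]
        simp only [Subgroup.coe_mul, InvMemClass.coe_inv]
        group
      rw [h3]
      exact V.mul_mem (V.inv_mem h2) h1
    have hW : ∑ y : (P : Subgroup G), (1 - ((ψ₀ y⁻¹ : ℂˣ) : ℂ)) *
        ∑ᶠ χ ∈ principalBlock M G, cc t χ * (χ : G → ℂ) y = 0 := by
      apply Finset.sum_eq_zero
      intro y _
      by_cases hy : y ∈ V
      · rw [hψ₀V _ (V.inv_mem hy), Units.val_one, sub_self, zero_mul]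
      · rw [hvan y hy, mul_zero]
    have hswap : ∑ y : (P : Subgroup G), (1 - ((ψ₀ y⁻¹ : ℂˣ) : ℂ)) *
        ∑ᶠ χ ∈ principalBlock M G, cc t χ * (χ : G → ℂ) y =
        ∑ᶠ χ ∈ principalBlock M G, cc t χ *
          ∑ y : (P : Subgroup G), (1 - ((ψ₀ y⁻¹ : ℂˣ) : ℂ)) * (χ : G → ℂ) y := by
      simp only [finsum_mem_eq_toFinset_sum, Finset.mul_sum]
      rw [Finset.sum_comm]
      refine Finset.sum_congr rfl fun χ _ => Finset.sum_congr rfl fun y _ => ?_
      ring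
    rw [hswap, D.block, finsum_union X Y D.disj] at hW
    have hinv : ψ₀⁻¹ ≠ 1 := by
      intro h
      apply hψ₀
      ext x
      have h1 := DFunLike.congr_fun h x
      have h2 : (ψ₀ x)⁻¹ = 1 := h1
      rw [inv_eq_one.1 h2]
      rfl
    have hX : ∑ᶠ χ ∈ X, cc t χ *
        ∑ y : (P : Subgroup G), (1 - ((ψ₀ y⁻¹ : ℂˣ) : ℂ)) * (χ : G → ℂ) y =
        Nat.card (P : Subgroup G) * ∑ᶠ χ ∈ X, (a χ : ℂ) * cc t χ := by
      rw [finsum_mem_eq_toFinset_sum, finsum_mem_eq_toFinset_sum, Finset.mul_sum]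
      refine Finset.sum_congr rfl fun χ hχ => ?_
      have hχX : χ ∈ X := by simpa using hχ
      have h1 : ∀ y : (P : Subgroup G), (1 - ((ψ₀ y⁻¹ : ℂˣ) : ℂ)) * (χ : G → ℂ) y =
          (a χ : ℂ) * (1 - ((ψ₀⁻¹ y : ℂˣ) : ℂ)) := by
        intro y
        have h0 : ψ₀ y⁻¹ = ψ₀⁻¹ y := by rw [map_inv]; rfl
        by_cases hy : (y : G) = 1
        · have hy' : y = 1 := Subtype.ext hy
          subst hy'
          simp
        · rw [(D.valX χ hχX).2 y y (PPart.isPPart_of_isPGroup (exists_orderOf P y.2)) y.2 hy, h0]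
          ring
      rw [Finset.sum_congr rfl fun y _ => h1 y, ← Finset.mul_sum, Finset.sum_sub_distrib,
        sum_units_eq_zero hinv, Finset.sum_const, Finset.card_univ, nsmul_eq_mul,
        ← Nat.card_eq_fintype_card]
      ring
    have hY : ∑ᶠ χ ∈ Y, cc t χ *
        ∑ y : (P : Subgroup G), (1 - ((ψ₀ y⁻¹ : ℂˣ) : ℂ)) * (χ : G → ℂ) y =
        Nat.card (P : Subgroup G) * (-(δ : ℂ) * cc t (ζ ψ₀)) := by
      rw [finsum_mem_eq_toFinset_sum]
      have h1 : ∀ χ ∈ Y.toFinset, cc t χ *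
          ∑ y : (P : Subgroup G), (1 - ((ψ₀ y⁻¹ : ℂˣ) : ℂ)) * (χ : G → ℂ) y =
          if χ = ζ ψ₀ then cc t (ζ ψ₀) * (-(δ : ℂ) * Nat.card (P : Subgroup G)) else 0 := by
        intro χ hχ
        rw [weight_Y hyp D hψ₀ χ (by simpa using hχ)]
        by_cases h : χ = ζ ψ₀
        · rw [if_pos h, if_pos h, h]
        · rw [if_neg h, if_neg h, mul_zero]
      rw [Finset.sum_congr rfl h1, Finset.sum_ite_eq' Y.toFinset (ζ ψ₀), if_pos (by
        simpa using D.memY ψ₀ hψ₀)]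
      ring
    rw [hX, hY, ← mul_add] at hW
    have hne : (Nat.card (P : Subgroup G) : ℂ) ≠ 0 := by exact_mod_cast Nat.card_pos.ne'
    have := (mul_eq_zero.1 hW).resolve_left hne
    linear_combination this

end Cfsg.Agent.H659.Frob3Invol
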