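import Cfsg.Agent.H659.J1Not11

/-!
# Cores with simple group `J₁` in degree ≤ 12 have degree ≤ 8 (and live in characteristic 11)
-/

set_option autoImplicit false

namespace Cfsg.Agent.H659.J1

open Module Cfsg Cfsg.Geo Matrix Cfsg.Agent.H915.LD Cfsg.Agent.H659.Ac Cfsg.Agent.H659.JL
open Cfsg.Spor (J1)

section

variable {K : Type*} [Field K] [IsAlgClosed K] {V : Type*} [AddCommGroup V] [Module K V] [FiniteDimensional K V]
  (ρ : J1 →* Module.End K V)

/-- **degree ≤ 12 implies degree ≤ 8** (odd characteristic different from 7) -/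
theorem le_eight (hirr : ∀ L : Submodule K V, (∀ k, ∀ v ∈ L, ρ k v ∈ L) → L = ⊥ ∨ L = ⊤) (hn : 2 ≤ finrank K V)
    (h12 : finrank K V ≤ 12) (h2 : (2 : K) ≠ 0) (h7 : ((7 : ℕ) : K) ≠ 0) : finrank K V ≤ 8 := by
  obtain ⟨η, hη⟩ := exists_root K 7 h7
  have pz := pos_z ρ hirr hn hη
  have sz := sum_z ρ hη
  have ht : ρ t * ρ t = 1 := by rw [← map_mul, t_sq, map_one]
  have hD := high_odd ρ h2 h12
  have st := split h2 ht ⊤ (fun v _ => trivial)
  rw [finrank_top, top_inf_eq, top_inf_eq] at st
  have Fw : 2 * finrank K (E (ρ z) (η ^ 1)) ≤ finrank K (E (ρ w) 1) := by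
    have h1 := finrank_E_ge hη (by norm_num) (z7 ρ) (X := ρ w) (s := 3) (r := 2) (μ := 1)
      (by rw [← map_pow, w_pow, map_one]) (by norm_num) (one_pow _) (by rw [← map_pow]; exact rel_of ρ zw)
      (a₁ := 1) (a₂ := 3) (by norm_num) (by norm_num) (by decide) (by decide) (by decide) (by decide)
    rw [dims_z ρ hη 3 (by norm_num) (by norm_num)] at h1
    omega
  have S7 := scott_J ρ hirr hn (a := A7) (b := w) (fun M ha hb k => gen7 ha hb k)
  rw [← conj_E ρ bt7 1, ← conj_E ρ cz7 1] at S7
  have S11 := scott_J ρ hirr hn (a := A11) (b := w) (fun M ha hb k => gen11 ha hb k)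
  rw [← conj_E ρ bt11 1, ← conj_E ρ cy11 1] at S11
  by_contra hcon
  -- an element of order 11 has a fixed vector
  have hy : 0 < finrank K (E (ρ y) 1) := by
    by_cases h11 : ((11 : ℕ) : K) = 0
    · have : Nontrivial V := Module.nontrivial_of_finrank_pos (R := K) (by omega)
      obtain ⟨c, hc⟩ := Module.End.exists_eigenvalue (ρ y)
      obtain ⟨v, hv⟩ := hc.exists_hasEigenvector
      have hv0 : v ≠ 0 := hv.2
      have hvc : ρ y v = c • v := hv.apply_eq_smul
      have hpow : ∀ k : ℕ, (ρ y ^ k) v = c ^ k • v := by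
        intro k
        induction k with
        | zero => rw [pow_zero, pow_zero, one_smul, Module.End.one_apply]
        | succ k ih => rw [pow_succ, Module.End.mul_apply, hvc, map_smul, ih, smul_smul, pow_succ, mul_comm]
      have h1 := hpow 11
      rw [y11 ρ, Module.End.one_apply] at h1
      have h3 : c ^ 11 = 1 := by
        have h4 : (c ^ 11 - 1) • v = 0 := by rw [sub_smul, ← h1, one_smul, sub_self]
        exact sub_eq_zero.1 ((smul_eq_zero.1 h4).resolve_right hv0)
      have : Fact (Nat.Prime 11) := ⟨by norm_num⟩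
      have : CharP K 11 := by
        refine (CharP.charP_iff_prime_eq_zero (by norm_num)).2 ?_
        exact h11
      have h5 : (c - 1) ^ 11 = 0 := by rw [sub_pow_char, h3, one_pow, sub_self]
      have h6 : c = 1 := sub_eq_zero.1 (pow_eq_zero_iff (by norm_num) |>.1 h5)
      have h8 : v ∈ E (ρ y) 1 := by rw [mem_E1, hvc, h6, one_smul]
      have : Nontrivial (E (ρ y) 1) := ⟨⟨⟨v, h8⟩, 0, fun h => hv0 (congrArg Subtype.val h)⟩⟩
      exact Module.finrank_pos
    · obtain ⟨ζ, hζ⟩ := exists_root K 11 h11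
      have py := pos_y ρ hirr hn hζ
      have sy := sum_y ρ hζ
      omega
  omega

end

variable {ι : Type} [Fintype ι] [DecidableEq ι] {F : Type*} [Field F] {P : Subgroup (GL ι F)}

/-- **Cores of type `J₁` of degree ≤ 12 in characteristic 11 have degree ≤ 8.** -/
theorem core_le_eight (hC : Core P) (h : Spor.IsoJ1 (Soc P)) [CharP F 11] (hn : Fintype.card ι ≤ 12) :
    Fintype.card ι ≤ 8 := by
  obtain ⟨e⟩ := h
  obtain ⟨-, E, -⟩ := exists_equiv hC e
  have hn2 := hC.two_le
  let φ' : J1 →* GL ι F := P.subtype.comp E.symm.toMonoidHom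
  have hrange : φ'.range = P := by
    ext g
    constructor
    · rintro ⟨w, rfl⟩
      exact (E.symm w).2
    · intro hg
      refine ⟨E ⟨g, hg⟩, ?_⟩
      change ((E.symm (E ⟨g, hg⟩) : P) : GL ι F) = g
      rw [MulEquiv.symm_apply_apply]
  have hs := H920.span_eq_top hC.absIrred
  let A := AlgebraicClosure F
  have hne : ∀ q : ℕ, q.Prime → q ≠ 11 → (q : A) ≠ 0 := by
    intro q hq hqp h0
    rw [CharP.cast_eq_zero_iff A 11] at h0
    exact hqp ((Nat.prime_dvd_prime_iff_eq (by norm_num) hq).1 h0).symm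
  have hfr : Module.finrank A (ι → A) = Fintype.card ι := Module.finrank_fintype_fun_eq_card A
  have h1 := le_eight (rp A φ') (rp_irr A φ' hrange hs) (by rw [hfr]; exact hn2) (by rw [hfr]; exact hn)
    (by exact_mod_cast hne 2 (by norm_num) (by norm_num)) (hne 7 (by norm_num) (by norm_num))
  rwa [hfr] at h1

end Cfsg.Agent.H659.J1
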